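import Cfsg.Agent.Lib.Helper11.Hec1.D0
import Cfsg.Agent.Lib.Helper11.Words

set_option autoImplicit false
set_option maxRecDepth 100000

namespace Cfsg.Agent.Lib.Helper11.Hec1

noncomputable def fc (i : ℕ) : ℕ := fc0_0 i
noncomputable def sc (i : ℕ) : ℕ := sc0_0 i
noncomputable def nc (i : ℕ) : ℕ := nc0_0 i
noncomputable def cc (i : ℕ) : ℕ := cc0_0 i

noncomputable def INV : ℕ := 172066848
def isH (l : ℕ) : Bool := decide (l ∈ [])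
def gens : List ℕ := [1, 2, 3, 4, 5]
def rt : RT := (.node 7 (.node 4 (.node 2 (.node 1 (.leaf 7 0 [1, 2, 1, 2]) (.leaf 10 0 [1, 5, 1, 5])) (.node 3 (.leaf 19 0 [3, 4, 3, 4]) (.leaf 9 0 [1, 4, 1, 4]))) (.node 6 (.node 5 (.leaf 20 0 [3, 5, 3, 5]) (.leaf 31 2 [4, 5, 4, 3, 5])) (.leaf 8 0 [1, 3, 1, 3]))) (.node 11 (.node 9 (.node 8 (.leaf 13 0 [2, 3, 2, 3, 2, 3]) (.leaf 31 3 [5, 4, 3, 5, 4])) (.node 10 (.leaf 15 1 [5, 2, 5, 2, 5, 2]) (.leaf 14 1 [4, 2, 4, 2, 4, 2]))) (.node 14 (.node 13 (.node 12 (.leaf 19 1 [4, 3, 4, 3]) (.leaf 20 1 [5, 3, 5, 3])) (.leaf 14 0 [2, 4, 2, 4, 2, 4])) (.node 15 (.leaf 15 0 [2, 5, 2, 5, 2, 5]) (.node 16 (.leaf 13 1 [3, 2, 3, 2, 3, 2]) (.node 18 (.node 17 (.leaf 31 4 [4, 3, 5, 4, 5]) (.leaf 31 1 [5, 4, 5, 4, 3])) (.leaf 0 0 [])))))))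


end Cfsg.Agent.Lib.Helper11.Hec1
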