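import Cfsg.Agent.Lib.Helper11.Hec1.All
import Cfsg.Agent.Lib.Helper11.Rel
import Cfsg.Prelude.Def_Spor_He
import Cfsg.Agent.Lib.Helper11.Rel2
import Cfsg.Agent.Lib.Helper11.HeRel

set_option autoImplicit false
set_option maxRecDepth 100000

namespace Cfsg.Agent.Lib.Helper11.Hec1

open Cfsg.Spor Cfsg.Spor.He

def LTF : List (FreeGroup Gen) := [1, a, d, e, f, g]
def code : Gen → ℕ
  | .a => 1 | .b => 0 | .c => 0 | .d => 2 | .e => 3 | .f => 4 | .g => 5
def nodes : List Gen := [.a, .d, .e, .f, .g]
def extraE : List WExp := [.mul (.l 3) (.inv (.pow (.mul (.l 4) (.l 5)) 2))]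
def hE : List (WExp × ℕ) := []

theorem rtok : rt.ok (baseWords edges code nodes INV 5 extraE hE) = true := by decide +kernel

theorem invol (x : Gen) (hx : x ∈ coxNodes edges) :
    (PresentedGroup.mk (coxRelators edges ∪ {r | r ∈ extra})) (FreeGroup.of x) =
      ((PresentedGroup.mk (coxRelators edges ∪ {r | r ∈ extra})) (FreeGroup.of x))⁻¹ := by
  have h := cox_rel edges extra x x hx hx
  have h1 : coxLabel edges x x = 1 := by simp [coxLabel]
  rw [h1, pow_one] at h
  exact eq_inv_of_mul_eq_one_left h

theorem hone : (PresentedGroup.mk (coxRelators edges ∪ {r | r ∈ extra})) 1 =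
    ((PresentedGroup.mk (coxRelators edges ∪ {r | r ∈ extra})) 1)⁻¹ := by simp

theorem hii (x : FreeGroup Gen) : (PresentedGroup.mk (coxRelators edges ∪ {r | r ∈ extra})) x =
    ((PresentedGroup.mk (coxRelators edges ∪ {r | r ∈ extra})) x⁻¹)⁻¹ := by rw [map_inv, inv_inv]

theorem hinv32 : ∀ l < 32, (PresentedGroup.mk (coxRelators edges ∪ {r | r ∈ extra}))
        (LTF.getD (invL INV l) 1) =
      ((PresentedGroup.mk (coxRelators edges ∪ {r | r ∈ extra})) (LTF.getD l 1))⁻¹ := by
  intro l hl
  interval_cases l
  · exact hone
  · exact invol _ (by decide)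
  · exact invol _ (by decide)
  · exact invol _ (by decide)
  · exact invol _ (by decide)
  · exact invol _ (by decide)
  · exact hone
  · exact hone
  · exact hone
  · exact hone
  · exact hone
  · exact hone
  · exact hone
  · exact hone
  · exact hone
  · exact hone
  · exact hone
  · exact hone
  · exact hone
  · exact hone
  · exact hone
  · exact hone
  · exact hone
  · exact hone
  · exact hone
  · exact hone
  · exact hone
  · exact hone
  · exact hone
  · exact hone
  · exact hone
  · exact hone

theorem upper : ((Subgroup.closure (∅ : Set (FreeGroup Gen))).map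
      (PresentedGroup.mk (coxRelators edges ∪ {r | r ∈ extra}))).relIndex
      ((Subgroup.closure ({a, d, e, f, g} : Set (FreeGroup Gen))).map
      (PresentedGroup.mk (coxRelators edges ∪ {r | r ∈ extra}))) ≠ 0 ∧
    ((Subgroup.closure (∅ : Set (FreeGroup Gen))).map
      (PresentedGroup.mk (coxRelators edges ∪ {r | r ∈ extra}))).relIndex
      ((Subgroup.closure ({a, d, e, f, g} : Set (FreeGroup Gen))).map
      (PresentedGroup.mk (coxRelators edges ∪ {r | r ∈ extra}))) ≤ 336 := by
  apply cox_relIndex_le' edges extra _ _ LTF code nodes INV 5 extraE hE rt fc sc nc cc isH gens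
    7 11 336 _ rfl (by decide) (by decide +kernel) hinv32 (by decide) _ _ _ _ _ _ rtok
    (by norm_num) (by norm_num) hN0 (by decide) chkAll clAll
  · intro x hx
    simp only [nodes, List.mem_cons, List.mem_nil_iff, or_false] at hx
    rcases hx with rfl | rfl | rfl | rfl | rfl <;> rfl
  · intro e he
    simp only [extraE, List.mem_cons, List.mem_nil_iff, or_false] at he
    rcases he with rfl
    · exact extra_rel edges extra _ (List.getElem_mem (l := extra) (n := 0) (by decide))
  · intro p hp
    have : hE.map (fun p => LTF.getD p.2 1) = hE.map (fun p => p.1.eval (fun l => LTF.getD l 1)) := rfl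
    exact List.map_inj_left.1 this p hp
  · intro l
    by_cases hl : l < 6
    · interval_cases l
      · exact Subgroup.one_mem _
      · exact Subgroup.subset_closure (by simp [LTF])
      · exact Subgroup.subset_closure (by simp [LTF])
      · exact Subgroup.subset_closure (by simp [LTF])
      · exact Subgroup.subset_closure (by simp [LTF])
      · exact Subgroup.subset_closure (by simp [LTF])
    · rw [List.getD_eq_default _ _ (by simp only [LTF, List.length_cons, List.length_nil]; omega)]
      exact Subgroup.one_mem _
  · intro s hs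
    simp only [Set.mem_insert_iff, Set.mem_singleton_iff] at hs
    rcases hs with rfl | rfl | rfl | rfl | rfl
    · exact ⟨1, by decide, rfl⟩
    · exact ⟨2, by decide, rfl⟩
    · exact ⟨3, by decide, rfl⟩
    · exact ⟨4, by decide, rfl⟩
    · exact ⟨5, by decide, rfl⟩
  · intro l hl
    exact absurd hl (by simp [isH])


end Cfsg.Agent.Lib.Helper11.Hec1
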